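/- S4963, tower K63: slot Pi. -/
import Cfsg.Agent.H36.K63Spec

set_option autoImplicit false

namespace H43.K63Pi

open Subgroup H36.K63

universe u

theorem job : H36.K63.JobPi.{u} := by
  intro G _ _ p _ P T _ hP hT hi
  let ρ : G →* MulAut P := MulAut.conjNormal
  let σ := (ρ.comp T.subtype).rangeRestrict
  have hσ : Function.Surjective σ := MonoidHom.rangeRestrict_surjective _
  have hC : ∀ c : G, ρ c = 1 ↔ c ∈ centralizer (P : Set G) := fun c =>
    ⟨fun e v hv => by
      have := congrArg Subtype.val (DFunLike.congr_fun e ⟨v, hv⟩)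
      exact (mul_inv_eq_iff_eq_mul.1 this).symm, fun hc => MulEquiv.ext fun v => Subtype.ext
        (mul_inv_eq_iff_eq_mul.2 (hc v v.2).symm)⟩
  have hN : ∀ n ∈ P ⊔ centralizer (P : Set G), ∃ a : P, ρ n = ρ a := fun n hn => by
    have : n ∈ ((P ⊔ centralizer (P : Set G) : Subgroup G) : Set G) := hn
    rw [normal_mul] at this
    obtain ⟨a, ha, c, hc, rfl⟩ := this
    exact ⟨⟨a, ha⟩, by rw [map_mul, (hC c).2 hc, mul_one]⟩
  let I := ((P ⊔ centralizer (P : Set G)).subgroupOf T).map σ
  have : I.Normal := Normal.map inferInstance σ hσ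
  have hI : I.comap σ = (P ⊔ centralizer (P : Set G)).subgroupOf T :=
    comap_map_eq_self fun t ht => mem_sup_right ((hC t).1 (congrArg Subtype.val ht))
  have hx : ¬ p ∣ I.index := by
    rw [← index_comap_of_surjective I hσ, hI]
    exact hi
  have hp : IsPGroup p I := by
    rintro ⟨_, n, hn, rfl⟩
    obtain ⟨a, ha⟩ := hN n hn
    obtain ⟨k, hk⟩ := hP a
    refine ⟨k, Subtype.ext (Subtype.ext ?_)⟩
    show ρ n ^ p ^ k = 1
    rw [ha, ← map_pow, ← coe_pow, hk, coe_one, map_one]
  obtain ⟨k, hk⟩ := hp.exists_card_eq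
  obtain ⟨E, hE⟩ := exists_left_complement'_of_coprime (N := I)
    (hk ▸ ((Nat.Prime.coprime_iff_not_dvd Fact.out).2 hx).pow_left k)
  let e := hE.QuotientMulEquiv
  have he : ∀ y, ((e y : E) : (ρ.comp T.subtype).range ⧸ I) = y := fun y => e.symm_apply_apply y
  refine ⟨E, inferInstance, inferInstance, (e.toMonoidHom.comp (QuotientGroup.mk' I)).comp σ,
    (ρ.comp T.subtype).range.subtype.comp E.subtype,
    (e.surjective.comp (QuotientGroup.mk'_surjective I)).comp hσ, fun t => ?_,
    Subtype.val_injective.comp Subtype.val_injective, ?_, fun t => ?_⟩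
  · show e (σ t) = 1 ↔ _
    rw [map_eq_one_iff e e.injective, QuotientGroup.eq_one_iff, ← mem_comap, hI, mem_subgroupOf]
  · rw [← Nat.card_congr e.toEquiv]
    exact hx
  · obtain ⟨n, hn, h1⟩ := QuotientGroup.eq_iff_div_mem.1 (he (σ t))
    obtain ⟨a, ha⟩ := hN n hn
    have h2 : ((e (σ t) : E) : MulAut P) = ρ a * ρ t := by
      have : ρ n = ((e (σ t) : E) : MulAut P) / ρ t := congrArg Subtype.val h1
      rw [← ha, this, div_mul_cancel]
    exact ⟨a, fun v => congrArg Subtype.val (DFunLike.congr_fun h2 v)⟩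

end H43.K63Pi
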