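import Cfsg.Agent.H43.CycTI3

/-! Bridge between `Cfsg.IsCyclicTIFamily` and the ambient `IsEta`. -/

set_option autoImplicit false

open scoped ComplexConjugate

namespace H43

open H42

variable {G : Type*} [Group G] [Finite G] {X W₁ W₂ : Subgroup G}

/-- `ω_ij` as a member of `Lin (W₁ ⊔ W₂)`. -/
noncomputable def CycTI0.omL (h : CycTI0 X W₁ W₂) (i : Lin W₁) (j : Lin W₂) : Lin (W₁ ⊔ W₂) :=
  Classical.choose (h.exists_lin_eq_om i j)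

theorem CycTI0.lin_omL (h : CycTI0 X W₁ W₂) (i : Lin W₁) (j : Lin W₂) :
    lin (h.omL i j) = om W₁ W₂ i j := (Classical.choose_spec (h.exists_lin_eq_om i j)).symm

/-- restriction to the first factor -/
abbrev r₁ (ω : ↥(W₁ ⊔ W₂) →* ℂˣ) : Lin W₁ := resLin le_sup_left (Lin.mk ω)

/-- restriction to the second factor -/
abbrev r₂ (ω : ↥(W₁ ⊔ W₂) →* ℂˣ) : Lin W₂ := resLin le_sup_right (Lin.mk ω)

theorem CycTI0.omL_res (h : CycTI0 X W₁ W₂) (ω : ↥(W₁ ⊔ W₂) →* ℂˣ) :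
    (h.omL (r₁ ω) (r₂ ω)).hom = ω := by
  have : h.omL (r₁ ω) (r₂ ω) = Lin.mk ω := lin_injective (by rw [h.lin_omL, ← h.lin_eq_om])
  rw [this]; rfl

theorem CycTI0.res_omL (h : CycTI0 X W₁ W₂) (i : Lin W₁) (j : Lin W₂) :
    r₁ (h.omL i j).hom = i ∧ r₂ (h.omL i j).hom = j :=
  h.om_inj (by rw [← h.lin_eq_om, Lin.mk_hom, h.lin_omL])

theorem CycTI0.res_inj (h : CycTI0 X W₁ W₂) {ω ω' : ↥(W₁ ⊔ W₂) →* ℂˣ} :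
    (r₁ ω = r₁ ω' ∧ r₂ ω = r₂ ω') ↔ ω = ω' :=
  ⟨fun e => by rw [← h.omL_res ω, e.1, e.2, h.omL_res], fun e => by rw [e]; exact ⟨rfl, rfl⟩⟩

theorem CycTI0.omL_inj (h : CycTI0 X W₁ W₂) {i i' : Lin W₁} {j j' : Lin W₂} :
    (h.omL i j).hom = (h.omL i' j').hom ↔ i = i' ∧ j = j' := by
  rw [← h.res_inj, (h.res_omL i j).1, (h.res_omL i j).2, (h.res_omL i' j').1, (h.res_omL i' j').2]

theorem CycTI0.om_res (h : CycTI0 X W₁ W₂) (ω : ↥(W₁ ⊔ W₂) →* ℂˣ) (w : ↥(W₁ ⊔ W₂)) :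
    om W₁ W₂ (r₁ ω) (r₂ ω) w = ω w := by
  rw [← h.lin_eq_om, lin_coe]; rfl

theorem CycTI0.omL_apply (h : CycTI0 X W₁ W₂) (i : Lin W₁) (j : Lin W₂) (w : ↥(W₁ ⊔ W₂)) :
    ((h.omL i j).hom w : ℂ) = om W₁ W₂ i j w := by rw [← h.lin_omL, lin_coe]

omit [Finite G] in
theorem r₁_mul (φ ψ : ↥(W₁ ⊔ W₂) →* ℂˣ) : r₁ (φ * ψ) = r₁ φ * r₁ ψ := rfl
omit [Finite G] in
theorem r₂_mul (φ ψ : ↥(W₁ ⊔ W₂) →* ℂˣ) : r₂ (φ * ψ) = r₂ φ * r₂ ψ := rfl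
omit [Finite G] in
theorem r₁_inv (φ : ↥(W₁ ⊔ W₂) →* ℂˣ) : r₁ φ⁻¹ = (r₁ φ)⁻¹ := rfl
omit [Finite G] in
theorem r₂_inv (φ : ↥(W₁ ⊔ W₂) →* ℂˣ) : r₂ φ⁻¹ = (r₂ φ)⁻¹ := rfl
omit [Finite G] in
theorem r₁_one : r₁ (1 : ↥(W₁ ⊔ W₂) →* ℂˣ) = 1 := rfl
omit [Finite G] in
theorem r₂_one : r₂ (1 : ↥(W₁ ⊔ W₂) →* ℂˣ) = 1 := rfl

omit [Finite G] in
theorem r₁_eq_one {φ : ↥(W₁ ⊔ W₂) →* ℂˣ} :
    r₁ φ = 1 ↔ ∀ w : ↥(W₁ ⊔ W₂), (w : G) ∈ W₁ → φ w = 1 := by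
  constructor
  · intro h w hw
    exact DFunLike.congr_fun (congrArg Lin.hom h) ⟨w, hw⟩
  · intro h
    apply Lin.hom_injective
    ext x
    exact congrArg Units.val (h ⟨x, Subgroup.mem_sup_left x.2⟩ x.2)

omit [Finite G] in
theorem r₂_eq_one {φ : ↥(W₁ ⊔ W₂) →* ℂˣ} :
    r₂ φ = 1 ↔ ∀ w : ↥(W₁ ⊔ W₂), (w : G) ∈ W₂ → φ w = 1 := by
  constructor
  · intro h w hw
    exact DFunLike.congr_fun (congrArg Lin.hom h) ⟨w, hw⟩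
  · intro h
    apply Lin.hom_injective
    ext x
    exact congrArg Units.val (h ⟨x, Subgroup.mem_sup_right x.2⟩ x.2)

theorem dirr_top {φ : G → ℂ} :
    Dirr ⊤ φ ↔ Cfsg.IsIrrCharacter G φ ∨ Cfsg.IsIrrCharacter G (-φ) := by
  rw [Dirr, mem_Irr_top, mem_Irr_top]

theorem CycTI0.dn_alp (h : CycTI0 X W₁ W₂) {φ ψ : ↥(W₁ ⊔ W₂) →* ℂˣ} (hφ : r₂ φ = 1)
    (hψ : r₁ ψ = 1) : dn (W₁ ⊔ W₂) (alp W₁ W₂ (r₁ φ) (r₂ ψ)) =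
      fun w => 1 - (φ w : ℂ) - (ψ w : ℂ) + (φ w : ℂ) * (ψ w : ℂ) := by
  funext w
  have e1 := h.om_res φ w
  have e2 := h.om_res ψ w
  have e3 := h.om_res (φ * ψ) w
  rw [hφ] at e1
  rw [hψ] at e2
  rw [r₁_mul, r₂_mul, hφ, hψ, mul_one, one_mul] at e3
  simp only [alp, dn_apply, Pi.add_apply, Pi.sub_apply, h.om_one, one_coe, e1, e2, e3]
  simp

theorem CycTI0.res_ne_one₁ (h : CycTI0 X W₁ W₂) {φ : ↥(W₁ ⊔ W₂) →* ℂˣ} (h1 : φ ≠ 1)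
    (hφ : r₂ φ = 1) : r₁ φ ≠ 1 := fun e => h1 (h.res_inj.1 ⟨e, hφ⟩)

theorem CycTI0.res_ne_one₂ (h : CycTI0 X W₁ W₂) {φ : ↥(W₁ ⊔ W₂) →* ℂˣ} (h1 : φ ≠ 1)
    (hφ : r₁ φ = 1) : r₂ φ ≠ 1 := fun e => h1 (h.res_inj.1 ⟨hφ, e⟩)

end H43

namespace H43

open H42

variable {G : Type*} [Group G] {W₁ W₂ : Subgroup G}

theorem family_of_isEta [Fintype G] (h : CycTI0 ⊤ W₁ W₂) {η : Lin W₁ → Lin W₂ → G → ℂ}
    (hη : IsEta ⊤ W₁ W₂ η) : Cfsg.IsCyclicTIFamily W₁ W₂ fun ω => η (r₁ ω) (r₂ ω) := by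
  refine ⟨fun ω => dirr_top.1 (hη.dirr _ _), fun ω ω' => ?_, ?_, fun ω w h1 h2 => ?_,
    fun φ ψ h1 h2 h3 h4 => ?_⟩
  · rw [← ip_top, hη.orth]
    by_cases e : ω = ω'
    · rw [if_pos e, if_pos (h.res_inj.2 e)]
    · rw [if_neg e, if_neg fun a => e (h.res_inj.1 a)]
  · rw [r₁_one, r₂_one, hη.one, one_top]; rfl
  · rw [hη.on_V h _ _ ⟨w.2, h1, h2⟩, h.om_res]
  · have a := r₂_eq_one.2 h3
    have b := r₁_eq_one.2 h4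
    rw [← h.dn_alp a b, ← ind_top, hη.ind_eq _ _ (h.res_ne_one₁ h1 a) (h.res_ne_one₂ h2 b),
      r₁_mul, r₂_mul, a, b, mul_one, one_mul, one_top]
    rfl

theorem isEta_of_family [Fintype G] (h : CycTI0 ⊤ W₁ W₂) {χ : (↥(W₁ ⊔ W₂) →* ℂˣ) → (G → ℂ)}
    (hχ : Cfsg.IsCyclicTIFamily W₁ W₂ χ) : IsEta ⊤ W₁ W₂ fun i j => χ (h.omL i j).hom := by
  refine ⟨fun i j => dirr_top.2 (hχ.irr_or_neg _), fun i i' j j' => ?_, ?_, fun i j hi hj => ?_⟩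
  · rw [ip_top, hχ.orthonormal]
    simp only [h.omL_inj]
  · have : (h.omL 1 1).hom = 1 := by rw [← r₁_one, ← r₂_one, h.omL_res]
    rw [this, hχ.map_one, one_top]; rfl
  · have a1 := (h.res_omL i 1).1
    have a2 := (h.res_omL i 1).2
    have b1 := (h.res_omL 1 j).1
    have b2 := (h.res_omL 1 j).2
    have e := hχ.induced_eq (h.omL i 1).hom (h.omL 1 j).hom
      (fun e => hi (by rw [← a1, e, r₁_one])) (fun e => hj (by rw [← b2, e, r₂_one]))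
      (r₂_eq_one.1 a2) (r₁_eq_one.1 b1)
    have e2 : (h.omL i 1).hom * (h.omL 1 j).hom = (h.omL i j).hom := by
      rw [← h.res_inj, r₁_mul, r₂_mul, a1, a2, b1, b2, (h.res_omL i j).1, (h.res_omL i j).2]
      simp
    rw [← h.dn_alp a2 b1, ← ind_top, a1, b2, e2] at e
    rw [e, one_top]; rfl

theorem family_eq_eta [Fintype G] (h : CycTI ⊤ W₁ W₂) {χ : (↥(W₁ ⊔ W₂) →* ℂˣ) → (G → ℂ)}
    (hχ : Cfsg.IsCyclicTIFamily W₁ W₂ χ) (ω : ↥(W₁ ⊔ W₂) →* ℂˣ) :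
    χ ω = eta ⊤ W₁ W₂ (r₁ ω) (r₂ ω) := by
  rw [(isEta_of_family h.toCycTI0 hχ).eq_eta h]
  exact congrArg χ (h.omL_res ω).symm

end H43
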